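import Mathlib
import Cfsg.Agent.Lib.Helper60.U64.Defs

/-!
# U64 (S6001), package [PM]

A subgroup `R` of `GL_4(F)` of symplectic type (exponent `4`), of order `64`, with centre of order
`4` and with only the scalars commuting with it, satisfies `xy = ± yx` and `x² = ± 1`.
-/

set_option autoImplicit false

namespace Cfsg.Agent.Lib.Helper15.U64

open Cfsg.Agent.Lib.Helper60.U64
open scoped commutatorElement

universe u

/-- In a finite group of exponent dividing `4` with centre of order `4` in which the characteristic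
abelian subgroups are cyclic, every characteristic abelian subgroup is central. -/
theorem char_abelian_le_center {G : Type*} [Group G] [Finite G]
    (hcyc : ∀ A : Subgroup G, A.Characteristic → IsMulCommutative A → IsCyclic A)
    (hexp : ∀ g : G, g ^ 4 = 1) (hZ : Nat.card (Subgroup.center G) = 4)
    (A : Subgroup G) (hA : A.Characteristic) (hAc : IsMulCommutative A) :
    A ≤ Subgroup.center G := by
  have hB : (A ⊔ Subgroup.center G).Characteristic := inferInstance
  have hBc : IsMulCommutative ↥(A ⊔ Subgroup.center G) := by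
    refine ⟨⟨fun b b' => ?_⟩⟩
    obtain ⟨a, ha, z, hz, hb⟩ := Subgroup.mem_sup_of_normal_right.mp b.2
    obtain ⟨a', ha', z', hz', hb'⟩ := Subgroup.mem_sup_of_normal_right.mp b'.2
    have haa : a * a' = a' * a := by
      have := hAc.is_comm.comm (⟨a, ha⟩ : A) ⟨a', ha'⟩
      exact congrArg (fun t : ↥A => (t : G)) this
    have hz1 : ∀ g : G, g * z = z * g := fun g => Subgroup.mem_center_iff.mp hz g
    have hz2 : ∀ g : G, g * z' = z' * g := fun g => Subgroup.mem_center_iff.mp hz' g
    apply Subtype.ext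
    change (b : G) * (b' : G) = (b' : G) * (b : G)
    rw [← hb, ← hb']
    calc a * z * (a' * z') = a * a' * (z * z') := by
          rw [mul_assoc, ← mul_assoc z, ← hz1 a', mul_assoc, ← mul_assoc]
      _ = a' * a * (z' * z) := by rw [haa, hz2 z]
      _ = a' * z' * (a * z) := by
          rw [mul_assoc a' z', ← mul_assoc z' a, ← hz2 a, mul_assoc a z', ← mul_assoc a' a]
  have hcy := hcyc _ hB hBc
  obtain ⟨g, hg⟩ := IsCyclic.exists_generator (α := ↥(A ⊔ Subgroup.center G))
  have hcard : Nat.card ↥(A ⊔ Subgroup.center G) ≤ 4 := by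
    rw [← orderOf_eq_card_of_forall_mem_zpowers hg]
    apply Nat.le_of_dvd (by norm_num)
    apply orderOf_dvd_of_pow_eq_one
    apply Subtype.ext
    have := hexp (g : G)
    simpa using this
  have heq : Subgroup.center G = A ⊔ Subgroup.center G :=
    Subgroup.eq_of_le_of_card_ge le_sup_right (by rw [hZ]; exact hcard)
  rw [heq]
  exact le_sup_left

/-- A nilpotent group in which every characteristic abelian subgroup is central has class at
most two. -/
theorem commutator_le_center_of_char {G : Type*} [Group G] (hnil : Group.IsNilpotent G)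
    (hchar : ∀ A : Subgroup G, A.Characteristic → IsMulCommutative A → A ≤ Subgroup.center G) :
    commutator G ≤ Subgroup.center G := by
  obtain ⟨c, hc⟩ := Subgroup.nilpotent_iff_lowerCentralSeries.mp hnil
  have step : ∀ n : ℕ, 1 ≤ n →
      (⊤ : Subgroup G).lowerCentralSeries (n + 1) ≤ Subgroup.center G →
      (⊤ : Subgroup G).lowerCentralSeries n ≤ Subgroup.center G := by
    intro n hn h
    set L := (⊤ : Subgroup G).lowerCentralSeries n with hL
    have h2 : ⁅⁅L, (⊤ : Subgroup G)⁆, (⊤ : Subgroup G)⁆ = ⊥ :=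
      Subgroup.commutator_top_right_eq_bot_iff_le_center.mpr h
    have h1 : ⁅⁅(⊤ : Subgroup G), L⁆, (⊤ : Subgroup G)⁆ = ⊥ := by
      rw [Subgroup.commutator_comm ⊤ L]; exact h2
    have h3 : ⁅⁅(⊤ : Subgroup G), (⊤ : Subgroup G)⁆, L⁆ = ⊥ :=
      Subgroup.commutator_commutator_eq_bot_of_rotate h1 h2
    have hle : L ≤ ⁅(⊤ : Subgroup G), (⊤ : Subgroup G)⁆ := by
      have := (Subgroup.lowerCentralSeries_antitone (⊤ : Subgroup G)) hn
      simpa [hL] using this
    have h4 : ⁅L, L⁆ = ⊥ := by
      rw [eq_bot_iff, ← h3]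
      exact Subgroup.commutator_mono hle le_rfl
    have hLc : IsMulCommutative L := Subgroup.commutator_self_eq_bot_iff.mp h4
    exact hchar L inferInstance hLc
  have key : ∀ k n : ℕ, 1 ≤ n →
      (⊤ : Subgroup G).lowerCentralSeries (n + k) ≤ Subgroup.center G →
      (⊤ : Subgroup G).lowerCentralSeries n ≤ Subgroup.center G := by
    intro k
    induction k with
    | zero => intro n _ h; simpa using h
    | succ k ih =>
      intro n hn h
      apply ih n hn
      apply step (n + k) (by omega)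
      simpa [add_assoc] using h
  have h1 := key c 1 le_rfl (by
    have : (⊤ : Subgroup G).lowerCentralSeries (1 + c) ≤ (⊤ : Subgroup G).lowerCentralSeries c :=
      (Subgroup.lowerCentralSeries_antitone (⊤ : Subgroup G)) (by omega)
    rw [hc] at this
    exact this.trans bot_le)
  rw [Subgroup.top_lowerCentralSeries_one] at h1
  exact h1

/-- Bubble sort: `(XY)^4 = c^10 Y^4 X^4` when `XY = c YX`. -/
theorem pow_four_of_comm_scalar {F : Type*} [Field F] (X Y : M4 F) (c : F)
    (h : X * Y = c • (Y * X)) : (X * Y) ^ 4 = c ^ 10 • (Y ^ 4 * X ^ 4) := by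
  have h1 : ∀ W : M4 F, X * (Y * W) = c • (Y * (X * W)) := fun W => by
    rw [← mul_assoc, h, smul_mul_assoc, mul_assoc]
  simp only [pow_succ, pow_zero, one_mul, mul_assoc, h1, h, mul_smul_comm, smul_mul_assoc,
    smul_smul]

theorem pkgPM : Cfsg.Agent.Lib.Helper60.U64.PkgPM.{u} := by
  intro F _ R hS hSc hR hZ h2
  have hfin : Finite R := Nat.finite_of_card_ne_zero (by rw [hR]; norm_num)
  -- exponent four
  have hexp : ∀ g : R, g ^ 4 = 1 := by
    intro g
    have h4 : Monoid.exponent R = 4 := by rw [hS.exponent_eq]; rfl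
    have h5 := Monoid.pow_exponent_eq_one g
    rwa [h4] at h5
  have hexpM : ∀ x ∈ R, ((x : GL (Fin 4) F) : M4 F) ^ 4 = 1 := by
    intro x hx
    have := hexp ⟨x, hx⟩
    have h' : (x : GL (Fin 4) F) ^ 4 = 1 := congrArg (fun t : ↥R => (t : GL (Fin 4) F)) this
    have h'' := congrArg (fun t : GL (Fin 4) F => (t : M4 F)) h'
    simpa using h''
  -- central elements are scalar
  have hcen : ∀ z : R, z ∈ Subgroup.center R → ∃ c : F, ((z : GL (Fin 4) F) : M4 F) = c • 1 := by
    intro z hz
    apply hSc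
    intro s hs
    have := Subgroup.mem_center_iff.mp hz ⟨s, hs⟩
    have h' : s * (z : GL (Fin 4) F) = (z : GL (Fin 4) F) * s :=
      congrArg (fun t : ↥R => (t : GL (Fin 4) F)) this
    have h'' := congrArg (fun t : GL (Fin 4) F => (t : M4 F)) h'
    simpa using h''.symm
  -- class two
  have : Fact (Nat.Prime 2) := ⟨Nat.prime_two⟩
  have hnil : Group.IsNilpotent R := hS.pGroup.isNilpotent
  have hcls : commutator R ≤ Subgroup.center R :=
    commutator_le_center_of_char hnil
      (char_abelian_le_center hS.cyclic_of_characteristic hexp hZ)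
  -- the commutation constant
  have hpm : ∀ x ∈ R, ∀ y ∈ R, ∃ c : F, (c = 1 ∨ c = -1) ∧
      ((x : GL (Fin 4) F) : M4 F) * ((y : GL (Fin 4) F) : M4 F) =
        c • (((y : GL (Fin 4) F) : M4 F) * ((x : GL (Fin 4) F) : M4 F)) := by
    intro x hx y hy
    have hzc : ⁅(⟨x, hx⟩ : R), (⟨y, hy⟩ : R)⁆ ∈ Subgroup.center R :=
      hcls (Subgroup.commutator_mem_commutator (Subgroup.mem_top _) (Subgroup.mem_top _))
    obtain ⟨c, hc⟩ := hcen _ hzc
    have hxy : ((x : GL (Fin 4) F) : M4 F) * ((y : GL (Fin 4) F) : M4 F) =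
        c • (((y : GL (Fin 4) F) : M4 F) * ((x : GL (Fin 4) F) : M4 F)) := by
      have e : x * y = (x * y * x⁻¹ * y⁻¹) * (y * x) := by group
      have e' := congrArg (fun t : GL (Fin 4) F => (t : M4 F)) e
      have hc' : ((x * y * x⁻¹ * y⁻¹ : GL (Fin 4) F) : M4 F) = c • 1 := by
        rw [← hc]; rfl
      simp only [Matrix.GeneralLinearGroup.coe_mul] at e'
      rw [e']
      have hc'' : ((x : GL (Fin 4) F) : M4 F) * ((y : GL (Fin 4) F) : M4 F) *
          ((x⁻¹ : GL (Fin 4) F) : M4 F) * ((y⁻¹ : GL (Fin 4) F) : M4 F) = c • 1 := by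
        rw [← hc']; simp only [Matrix.GeneralLinearGroup.coe_mul]
      rw [hc'', smul_mul_assoc, one_mul]
    refine ⟨c, ?_, hxy⟩
    have hc4 : c ^ 4 = 1 := by
      have hz4 := hexpM _ (⁅(⟨x, hx⟩ : R), (⟨y, hy⟩ : R)⁆).2
      rw [hc] at hz4
      have := congrFun (congrFun hz4 0) 0
      simpa [smul_pow, Matrix.smul_apply] using this
    have hk := pow_four_of_comm_scalar _ _ c hxy
    have hxy4 : (((x : GL (Fin 4) F) : M4 F) * ((y : GL (Fin 4) F) : M4 F)) ^ 4 = 1 := by
      have := hexpM (x * y) (R.mul_mem hx hy)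
      simpa using this
    rw [hxy4, hexpM x hx, hexpM y hy, one_mul] at hk
    have hc10 : c ^ 10 = 1 := by
      have := congrFun (congrFun hk 0) 0
      simpa [Matrix.smul_apply] using this.symm
    have hc2 : c ^ 2 = 1 := by
      have : c ^ 10 = c ^ 2 * (c ^ 4) ^ 2 := by ring
      rw [this, hc4] at hc10
      simpa using hc10
    exact mul_self_eq_one_iff.mp (by rw [← sq]; exact hc2)
  refine ⟨?_, ?_⟩
  · intro x hx y hy
    obtain ⟨c, hc | hc, hxy⟩ := hpm x hx y hy
    · left; rw [hxy, hc, one_smul]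
    · right; rw [hxy, hc, neg_smul, one_smul]
  · intro x hx
    have hcomm : ∀ s ∈ R, ((x : GL (Fin 4) F) : M4 F) * ((x : GL (Fin 4) F) : M4 F) *
        ((s : GL (Fin 4) F) : M4 F) = ((s : GL (Fin 4) F) : M4 F) *
        (((x : GL (Fin 4) F) : M4 F) * ((x : GL (Fin 4) F) : M4 F)) := by
      intro s hs
      obtain ⟨c, hc, hxs⟩ := hpm x hx s hs
      have hcc : c * c = 1 := by rcases hc with rfl | rfl <;> simp
      rw [mul_assoc, hxs, mul_smul_comm, ← mul_assoc, hxs, smul_mul_assoc, smul_smul, hcc,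
        one_smul, mul_assoc]
    obtain ⟨d, hd⟩ := hSc _ hcomm
    have hd2 : d * d = 1 := by
      have h4 := hexpM x hx
      have : ((x : GL (Fin 4) F) : M4 F) ^ 4 = (((x : GL (Fin 4) F) : M4 F) *
          ((x : GL (Fin 4) F) : M4 F)) * (((x : GL (Fin 4) F) : M4 F) *
          ((x : GL (Fin 4) F) : M4 F)) := by
        simp only [pow_succ, pow_zero, one_mul, mul_assoc]
      rw [this, hd, smul_mul_assoc, one_mul, smul_smul] at h4
      have := congrFun (congrFun h4 0) 0
      simpa [Matrix.smul_apply] using this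
    rcases mul_self_eq_one_iff.mp hd2 with rfl | rfl
    · left; rw [hd, one_smul]
    · right; rw [hd, neg_smul, one_smul]

end Cfsg.Agent.Lib.Helper15.U64
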