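import Mathlib
import Cfsg.Agent.Lib.Helper60.U64.Defs

/-!
# U64 (S6001), package [QR5]

If `p ≡ 3 (mod 4)` is a prime which does not have order `4` modulo `5`, then `5` is a square
modulo `p`, and so the field of order `p²` has an element `τ` of its prime field with
`τ² + τ = 1`.
-/

set_option autoImplicit false

namespace Cfsg.Agent.Lib.Helper15.U64

universe u

theorem orderOf_two_zmod5 : orderOf (2 : ZMod 5) = 4 := by
  have := orderOf_eq_prime_pow (x := (2 : ZMod 5)) (p := 2) (n := 1) (by decide) (by decide)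
  simpa using this

theorem orderOf_three_zmod5 : orderOf (3 : ZMod 5) = 4 := by
  have := orderOf_eq_prime_pow (x := (3 : ZMod 5)) (p := 2) (n := 1) (by decide) (by decide)
  simpa using this

/-- `5` is a square modulo a prime `p ≡ 3 (mod 4)` that is not of order `4` modulo `5`. -/
theorem isSquare_five (p : ℕ) (hp : p.Prime) (hp4 : p % 4 = 3)
    (hord : orderOf (p : ZMod 5) ≠ 4) : IsSquare ((5 : ℕ) : ZMod p) := by
  have : Fact p.Prime := ⟨hp⟩
  have : Fact (Nat.Prime 5) := ⟨by norm_num⟩
  have hp2 : p ≠ 2 := by rintro rfl; omega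
  have hp5 : p ≠ 5 := by rintro rfl; omega
  apply (ZMod.exists_sq_eq_prime_iff_of_mod_four_eq_one (p := 5) (q := p) (by norm_num) hp2).mp
  have hmod : (p : ZMod 5) = ((p % 5 : ℕ) : ZMod 5) := (ZMod.natCast_mod p 5).symm
  have h5 : p % 5 ≠ 0 := by
    intro h
    have : 5 ∣ p := Nat.dvd_of_mod_eq_zero h
    rcases (Nat.prime_dvd_prime_iff_eq (by norm_num) hp).mp this with h'
    exact hp5 h'.symm
  have hlt : p % 5 < 5 := Nat.mod_lt _ (by norm_num)
  rw [hmod] at hord ⊢
  interval_cases h : p % 5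
  · exact absurd rfl h5
  · exact ⟨1, by norm_num⟩
  · exact absurd orderOf_two_zmod5 hord
  · exact absurd orderOf_three_zmod5 hord
  · exact ⟨2, by norm_num⟩

theorem pkgQR5 : Cfsg.Agent.Lib.Helper60.U64.PkgQR5.{u} := by
  intro F _ _ p hcard hp hp4 hord
  have : Fact p.Prime := ⟨hp⟩
  have hp2 : p ≠ 2 := by rintro rfl; omega
  -- characteristic p
  have hchar : CharP F p := by
    obtain ⟨q, hq⟩ := CharP.exists F
    have := hq
    have hqp : q.Prime := CharP.char_is_prime F q
    have hdvd : q ∣ Fintype.card F := by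
      have : ((Fintype.card F : ℕ) : F) = 0 := Nat.cast_card_eq_zero F
      exact (CharP.cast_eq_zero_iff F q _).mp this
    rw [hcard] at hdvd
    have := (Nat.prime_dvd_prime_iff_eq hqp hp).mp (hqp.dvd_of_dvd_pow hdvd)
    rwa [this] at hq
  have := hchar
  obtain ⟨s, hs⟩ := isSquare_five p hp hp4 hord
  have h2 : (2 : ZMod p) ≠ 0 := by
    intro h
    have : ((2 : ℕ) : ZMod p) = 0 := by exact_mod_cast h
    rw [ZMod.natCast_eq_zero_iff] at this
    exact hp2 ((Nat.prime_dvd_prime_iff_eq hp Nat.prime_two).mp this)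
  let f : ZMod p →+* F := ZMod.castHom (dvd_refl p) F
  set t : ZMod p := (s - 1) / 2 with ht
  have hts : t * t + t = 1 := by
    have hs' : s * s = 5 := by rw [← hs]; norm_num
    rw [ht]
    field_simp
    linear_combination hs'
  refine ⟨f t, ?_, ?_⟩
  · rw [← map_mul, ← map_add, hts, map_one]
  · rw [← map_pow, ZMod.pow_card]

end Cfsg.Agent.Lib.Helper15.U64
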